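import Mathlib

/-! # Hadamard table for the double cover of M12 -/

set_option autoImplicit false

namespace Cfsg.Agent.H15.M12Cover

/-- Hadamard matrix bits -/
def HB : ℕ := 0x728400000000d880800000000000003a0880684480000000000000a2c080a88c000000009a440000000010cc804ac800f04800c20c80000000

/-- transversal elements with sign masks -/
def tabs : List (List (ℕ × ℕ)) := [
  [(0xbdab49ca307b9ac5a928398a418820, 0x0),
   (0xbd9f3a222da960c59cd2525c418801, 0xc21edc),
   (0x2cd76a1a32add2c7a90d3c1c418402, 0x39c366),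
   (0x2d5767a6f09c4cca1da8549c410403, 0x39c366),
   (0x7baf62c1699c5aca28d23a2a310404, 0xc33dc8),
   (0xa962a748e4a5e097ad88b366310406, 0x3dd02e),
   (0x55dd4892ad394d05ce497b2c310408, 0xc21edc),
   (0xa16277354cadd069d8905c9e310409, 0x3dd02e),
   (0x9baeb2a2c67c644a9d2d542831040c, 0xc33dc8),
   (0x5c4afb9a70b39923d104aa5431040d, 0xc63f84),
   (0x3ddd58b29251528b3da69916310410, 0xc21edc),
   (0xb44b3ba5e85b88d5560ca18e310412, 0xc63f84)],
  [(0xbdab49ca307b9ac5a928398a418820, 0x0),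
   (0x2ceb4b36295ba4c79e06522e418440, 0x10346),
   (0x2d66fb22e65ba0ca2a493b62410460, 0x10346),
   (0x7ba65b496dbd52ca1d1051a2310480, 0x52054),
   (0xa968e520f08cc897d9b25b2e3104c0, 0x5100e),
   (0x55cf1a26a6759b05bd849c8a310500, 0x0),
   (0xa16ae3c1488bd869ae4db12e310520, 0x5100e),
   (0x9b9e55b6d2bd0c4aaa083a62310580, 0x52054),
   (0x5c6d77926c2aa123d526a21c3105a0, 0x50318),
   (0x3dd51a9a8972e48b4c8c7b4a310600, 0x0),
   (0xb45779b1e429d0d550c9ac1c310640, 0x50318)],
  [(0xbdab49ca307b9ac5a928398a418820, 0x0),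
   (0x8da6fac2f2a390c59ccd524a410c20, 0x0),
   (0x8da6572568a564cba9a63c1e311020, 0x52054),
   (0xbaa8e290ed7cd098ae0cb4aa311820, 0x13148),
   (0x2d0f1bb6ac5d93074cd27914312020, 0x10346),
   (0xb9eae2b1529be068d9045b68312420, 0x13148),
   (0x8ade571ad0ad1a4b9e495226313020, 0x52054),
   (0x73ed78c2693a8922d188a996313420, 0x211e),
   (0x2d551bca84b2cc873d2d9b0e314020, 0x10346),
   (0x74d778a1e651d8d2d490a26c314820, 0x211e)],
  [(0xbdab49ca307b9ac5a928398a418820, 0x0),
   (0x5d9d49a2292d4ccb9e12535e320820, 0x50318),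
   (0x3a8afa36e474d898da485c2a330820, 0x43304),
   (0xad2eb3b0ad8da5073c899994340820, 0x4224a),
   (0x51cb3acaec73c868adb0b228348820, 0x43304),
   (0xb2dd57c2262d124ba90d3ca6360820, 0x50318),
   (0x9be27b25d0ba9122d4c4a316368820, 0x211e),
   (0xa56f6510b28ada874d867a4e380820, 0x4224a),
   (0x7ce2a599c8b9e0d2d12ca92c390820, 0x211e)],
  [(0xbdab49ca307b9ac5a928398a418820, 0x0),
   (0x8aa6fa22f2a96093ac8db31c618820, 0x125c),
   (0x752cb3a4a455cd0acdac7ca2818820, 0x4224a),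
   (0x89df3ac2eda150655992591c918820, 0x125c),
   (0xbae957b6289ba44b1cd0524ac18820, 0x0),
   (0x2bd47b11c65c5929d209aa2ed18820, 0x10346),
   (0x75576518ac3dd28a3e449b63018820, 0x4224a),
   (0x2ccea5b1c9b448d7d506a42f218820, 0x10346)]]

/-- first element of an anticommuting pair -/
def pa : ℕ × ℕ := (0x2d176519cc3c530acda47cae810c01, 0x39c366)
/-- second element of an anticommuting pair -/
def pb : ℕ × ℕ := (0x8cceab32e6594927d109ac1cd08062, 0xa96fc)

end Cfsg.Agent.H15.M12Cover
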