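import Cfsg.Agent.H15.MathCode

set_option autoImplicit false
set_option linter.all false
set_option maxRecDepth 100000

namespace Cfsg.Agent.H15.T.L11x

open Cfsg Cfsg.Agent.H7 Cfsg.Agent.H8 Cfsg.Agent.H15.MathCode

noncomputable def Dc : Nat := nat_lit 0xc1409848221100040000
noncomputable def D : Nat → Nat := fun i => Nat.land (Nat.shiftRight Dc (Nat.mul (nat_lit 9) i)) (nat_lit 511)
noncomputable def Cc : Nat := nat_lit 0x5ddd59a4e87d186b4483534b280820bda8e7a0ed2d4925c46c5267030820bd9d52b1449d20859cd288ded48820b2eb42b4e99b870bc584521e690820b2e8e991437d4cdb9e508b0a940820b2dd57c2262d124ba90d3ca63608205deb478d4c2ba49b1e0689268688205de8e29a329d503b29a93c1ec20820bdab49ca307b9ac5a928398a418820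
noncomputable def C : Nat → Nat := fun i => Nat.land (Nat.shiftRight Cc (Nat.mul (nat_lit 120) i)) (nat_lit 1329227995784915872903807060280344575)
noncomputable def Sc : Nat := nat_lit 0x76543218
noncomputable def S : Nat → Nat := fun i => Nat.land (Nat.shiftRight Sc (Nat.mul (nat_lit 4) i)) (nat_lit 15)
def Y0 : Nat := nat_lit 0x5de8e29a329d503b29a93c1ec20820
def Y1 : Nat := nat_lit 0x5deb478d4c2ba49b1e068926868820
noncomputable def Y : Nat → Nat := fun l0 => @Nat.rec (fun _ => Nat) (Y0) (fun l1 _ => Y1) l0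
theorem okY0 : isPermCode Y0 = true := by decide +kernel
theorem okY1 : isPermCode Y1 = true := by decide +kernel
theorem ckc : allR (ckC C D Y (nat_lit 2)) (nat_lit 0) (nat_lit 8) = true := by decide +kernel
theorem cks : allR (ckS C S (nat_lit 9)) (nat_lit 0) (nat_lit 8) = true := by decide +kernel

theorem lower (P : Subgroup (Equiv.Perm GolayPt)) (h0 : mkPerm Y0 ∈ P) (h1 : mkPerm Y1 ∈ P) :
    9 ≤ Nat.card P :=
  card_ge_codes P 8 2 C D Y S (by
    intro l hl
    interval_cases l
    · exact ⟨okY0, h0⟩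
    · exact ⟨okY1, h1⟩
    ) (by decide +kernel) ckc cks

end Cfsg.Agent.H15.T.L11x
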