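import Cfsg.Agent.H15.MathCode

set_option autoImplicit false
set_option linter.all false
set_option maxRecDepth 100000

namespace Cfsg.Agent.H15.T.L23x

open Cfsg Cfsg.Agent.H7 Cfsg.Agent.H8 Cfsg.Agent.H15.MathCode

noncomputable def Dc : Nat := nat_lit 0xc1409848221100040000
noncomputable def D : Nat → Nat := fun i => Nat.land (Nat.shiftRight Dc (Nat.mul (nat_lit 9) i)) (nat_lit 511)
noncomputable def Cc : Nat := nat_lit 0xbbab32be2620c4c828e80ae92b012dbad549da2f7405593028490a3300edbc9949ae2e83c0ab54e808ca623522b9185a1a365c84a1d5283ba707802db8ea5a122b9580c328284c26f734e2b9945a0e32b2db5230e80be6e80920bc1532ba24198157b1283ca965b422bbd932c223311aa754284da8b908e0bdab49ca307b9ac5a928398a418820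
noncomputable def C : Nat → Nat := fun i => Nat.land (Nat.shiftRight Cc (Nat.mul (nat_lit 120) i)) (nat_lit 1329227995784915872903807060280344575)
noncomputable def Sc : Nat := nat_lit 0x62187354
noncomputable def S : Nat → Nat := fun i => Nat.land (Nat.shiftRight Sc (Nat.mul (nat_lit 4) i)) (nat_lit 15)
def Y0 : Nat := nat_lit 0xbbd932c223311aa754284da8b908e0
def Y1 : Nat := nat_lit 0xbc1532ba24198157b1283ca965b422
noncomputable def Y : Nat → Nat := fun l0 => @Nat.rec (fun _ => Nat) (Y0) (fun l1 _ => Y1) l0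
theorem okY0 : isPermCode Y0 = true := by decide +kernel
theorem okY1 : isPermCode Y1 = true := by decide +kernel
theorem ckc : allR (ckC C D Y (nat_lit 2)) (nat_lit 0) (nat_lit 8) = true := by decide +kernel
theorem cks : allR (ckS C S (nat_lit 9)) (nat_lit 0) (nat_lit 8) = true := by decide +kernel

theorem lower (P : Subgroup (Equiv.Perm GolayPt)) (h0 : mkPerm Y0 ∈ P) (h1 : mkPerm Y1 ∈ P) :
    9 ≤ Nat.card P :=
  card_ge_codes P 8 2 C D Y S (by
    intro l hl
    interval_cases l
    · exact ⟨okY0, h0⟩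
    · exact ⟨okY1, h1⟩
    ) (by decide +kernel) ckc cks

end Cfsg.Agent.H15.T.L23x
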